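/-
S5806, characteristic two: chunks KT and EF.
-/
import Cfsg.Agent.H6.SP2
import Cfsg.Agent.H13.RI1

set_option autoImplicit false
set_option linter.unusedSectionVars false
set_option linter.unusedSimpArgs false

namespace H10.SP
open Matrix Cfsg Cfsg.Geo H27.Asch Module Submodule H11.SP H6.SP
open scoped commutatorElement MatrixGroups

universe u
variable {k : Type u} [Field k] [CharP k 2] {G : Type*} [Group G] {P : Subgroup (G6 k)} {π : P →* G}
  {u w u' w' p x y z t v : V6 k} {c : k}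

/-! ### `SL₂` -/
def up (y : k) : SL(2, k) := ⟨!![1, y; 0, 1], by simp [det_fin_two]⟩
def lo (y : k) : SL(2, k) := ⟨!![1, 0; y, 1], by simp [det_fin_two]⟩
def sp (ν : k) (h : ν ≠ 0) : SL(2, k) := ⟨!![0, ν; ν⁻¹, 0], by
  simp [det_fin_two, h, neg_eq_of_add_eq_zero_left (aa (1 : k))]⟩
@[simp] theorem up_v (y : k) : (up y).1 = !![1, y; 0, 1] := rfl
@[simp] theorem lo_v (y : k) : (lo y).1 = !![1, 0; y, 1] := rfl
@[simp] theorem sp_v (ν : k) (h : ν ≠ 0) : (sp ν h).1 = !![0, ν; ν⁻¹, 0] := rfl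
theorem up_sq (y : k) : up y * up y = 1 := Subtype.ext (by
  ext i j; fin_cases i <;> fin_cases j <;> simp [Matrix.mul_apply, Fin.sum_univ_two, aa])
theorem lo_sq (y : k) : lo y * lo y = 1 := Subtype.ext (by
  ext i j; fin_cases i <;> fin_cases j <;> simp [Matrix.mul_apply, Fin.sum_univ_two, aa])

theorem sl_odd [Finite k] {y z : k} (hy : y ≠ 0) (hz : z ≠ 0) : Odd (orderOf (up y * lo z)) := by
  refine Nat.not_even_iff_odd.1 fun ⟨j, e⟩ => ?_
  have o : 0 < orderOf (up y * lo z) := orderOf_pos _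
  set s := up y * lo z with hs
  have i := H13.RInv.conj_pow (H13.RInv.inverts (up_sq y) (lo_sq z)) j
  rw [← hs, _root_.zpow_neg, zpow_natCast] at i
  have sq : s ^ j * s ^ j = 1 := by rw [← pow_add, ← e, pow_orderOf_eq_one]
  rw [inv_eq_of_mul_eq_one_right sq] at i
  have i2 : lo z * s ^ j = s ^ j * lo z := by
    have : lo z = up y * s := by rw [hs, ← mul_assoc, up_sq, one_mul]
    rw [this, mul_assoc, ← pow_succ', pow_succ, ← mul_assoc, i, mul_assoc]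
  refine pow_ne_one_of_lt_orderOf (n := j) (by omega) (by omega) (?_ : s ^ j = 1)
  generalize s ^ j = m at *
  have a1 := congrArg (fun g : SL(2, k) => g.1 0 0) i
  have a2 := congrArg (fun g : SL(2, k) => g.1 0 1) i
  have a3 := congrArg (fun g : SL(2, k) => g.1 0 0) i2
  have a4 := congrArg (fun g : SL(2, k) => g.1 0 0) sq
  simp [Matrix.mul_apply, Fin.sum_univ_two, hy, hz] at a1 a2 a3 a4
  ext i j; fin_cases i <;> fin_cases j <;> simp <;> grind

theorem sl_sw [Finite k] {H : Subgroup SL(2, k)} {y z : k} (hy : y ≠ 0) (hz : z ≠ 0) (a : up y ∈ H) (b : lo z ∈ H) :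
    ∃ ν h, ν ^ 2 * z = y ∧ sp ν h ∈ H := by
  obtain ⟨j, e⟩ := sl_odd hy hz
  set s := up y * lo z with hs
  have i := H13.RInv.conj_pow (H13.RInv.inverts (up_sq y) (lo_sq z)) j
  rw [← hs, _root_.zpow_neg, zpow_natCast] at i
  have m : s ^ j * up y ∈ H := H.mul_mem (H.pow_mem (H.mul_mem a b) _) a
  have sq : s ^ j * up y * (s ^ j * up y) = 1 := by
    rw [mul_assoc, ← mul_assoc (up y), i, mul_assoc, up_sq, mul_one, mul_inv_cancel]
  have cj : s ^ j * up y * up y = lo z * (s ^ j * up y) := by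
    have : lo z = up y * s := by rw [hs, ← mul_assoc, up_sq, one_mul]
    have o : s * s ^ j = (s ^ j)⁻¹ := eq_inv_of_mul_eq_one_left (by
      rw [← pow_succ', ← pow_add, show j + 1 + j = 2 * j + 1 by ring, ← e, pow_orderOf_eq_one])
    have i' : up y * (s ^ j)⁻¹ = s ^ j * up y := by
      rw [mul_inv_eq_iff_eq_mul, mul_assoc, i, mul_inv_cancel_left]
    rw [this, mul_assoc (up y), ← mul_assoc s, o, ← mul_assoc (up y), i']
  generalize s ^ j * up y = n at *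
  have a1 := congrArg (fun g : SL(2, k) => g.1 0 1) cj
  have a2 := congrArg (fun g : SL(2, k) => g.1 1 1) cj
  have a3 := congrArg (fun g : SL(2, k) => g.1 0 0) sq
  have a4 := congrArg (fun g : SL(2, k) => g.1 0 1) sq
  simp [Matrix.mul_apply, Fin.sum_univ_two, hy, hz] at a1 a2 a3 a4
  have h : n.1 0 1 ≠ 0 := by grind
  refine ⟨n.1 0 1, h, by grind, ?_⟩
  convert m
  ext i j; fin_cases i <;> fin_cases j <;> simp <;> grind

theorem sl_pk [Finite k] {H : Subgroup SL(2, k)} {l c : k} (hl : l ≠ 0) (hc : c ≠ 0) (a : up 1 ∈ H) (a' : up l ∈ H)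
    (b : lo c ∈ H) : up ((1 + l) / c) ∈ H := by
  obtain ⟨ν1, h1, e1, m1⟩ := sl_sw one_ne_zero hc a b
  obtain ⟨ν2, h2, e2, m2⟩ := sl_sw hl hc a' b
  obtain ⟨ν, h, e, g, hg, m⟩ := sl_sw (H := H.map (MulAut.conj (up c⁻¹)).toMonoidHom) (y := 1) (z := c ^ 2 * l) one_ne_zero
    (by positivity) ⟨_, a, by
      change up c⁻¹ * _ * (up c⁻¹)⁻¹ = _
      rw [mul_inv_eq_iff_eq_mul]
      ext i j; fin_cases i <;> fin_cases j <;> simp [Matrix.mul_apply, Fin.sum_univ_two, add_comm]⟩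
    ⟨_, H.mul_mem (H.mul_mem b a') b, by
      change up c⁻¹ * _ * (up c⁻¹)⁻¹ = _
      rw [mul_inv_eq_iff_eq_mul]
      ext i j; fin_cases i <;> fin_cases j <;> simp [Matrix.mul_apply, Fin.sum_univ_two] <;> grind⟩
  have m' : g = up c⁻¹ * sp ν h * up c⁻¹ := by
    rw [← m]; change g = up c⁻¹ * (up c⁻¹ * g * (up c⁻¹)⁻¹) * up c⁻¹
    rw [← mul_assoc, ← mul_assoc, up_sq, one_mul, inv_mul_cancel_right]
  convert H.mul_mem (H.mul_mem (H.mul_mem b hg) m1) m2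
  have r : ν2 = ν1 * (c * ν)⁻¹ := by
    have : (ν2 * (c * ν) + ν1) ^ 2 = 0 := by grind
    have := pow_eq_zero_iff two_ne_zero |>.1 this
    grind
  subst r m'
  ext i j; fin_cases i <;> fin_cases j <;> simp [Matrix.mul_apply, Fin.sum_univ_two] <;> grind

/-! ### the embedding of an opposite pair -/
theorem mu {A B : M6 k} (a : A * A = 0) (b : B * B = 0) (ab : A * B * A = A) (ba : B * A * B = B) (m n : Matrix (Fin 2) (Fin 2) k) :
    1 + ((m * n) 0 0 - 1) • (A * B) + (m * n) 0 1 • A + (m * n) 1 0 • B + ((m * n) 1 1 - 1) • (B * A) =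
    (1 + (m 0 0 - 1) • (A * B) + m 0 1 • A + m 1 0 • B + (m 1 1 - 1) • (B * A)) *
    (1 + (n 0 0 - 1) • (A * B) + n 0 1 • A + n 1 0 • B + (n 1 1 - 1) • (B * A)) := by
  have a' : ∀ X, A * (A * X) = 0 := fun X => by rw [← mul_assoc, a, zero_mul]
  have b' : ∀ X, B * (B * X) = 0 := fun X => by rw [← mul_assoc, b, zero_mul]
  have ab' : ∀ X, A * (B * (A * X)) = A * X := fun X => by rw [← mul_assoc, ← mul_assoc, ab]
  have ba' : ∀ X, B * (A * (B * X)) = B * X := fun X => by rw [← mul_assoc, ← mul_assoc, ba]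
  rw [mul_assoc] at ab ba
  simp only [mul_add, add_mul, mul_smul_comm, smul_mul_assoc, one_mul, mul_one, mul_assoc, a, b, a', b', ab, ba, ab', ba', mul_zero,
    smul_zero, Matrix.mul_apply, Fin.sum_univ_two]
  module

/-- the homomorphism of an opposite pair -/
theorem phi (h : fm u w = 0) (h' : fm u' w' = 0) (hc : pr u w u' w' ≠ 0) : ∃ φ : SL(2, k) →* G6 k, ∀ g, (φ g).val =
    1 + (g.1 0 0 - 1) • (N u w * (pr u w u' w')⁻¹ • N u' w') + g.1 0 1 • N u w + g.1 1 0 • (pr u w u' w')⁻¹ • N u' w' +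
      (g.1 1 1 - 1) • ((pr u w u' w')⁻¹ • N u' w' * N u w) := by
  let f : SL(2, k) →* M6 k := {
    toFun g := 1 + (g.1 0 0 - 1) • (N u w * (pr u w u' w')⁻¹ • N u' w') + g.1 0 1 • N u w +
      g.1 1 0 • (pr u w u' w')⁻¹ • N u' w' + (g.1 1 1 - 1) • ((pr u w u' w')⁻¹ • N u' w' * N u w)
    map_one' := by simp
    map_mul' a b := mu (N_sq h) (by simp [N_sq h']) (by simp [NNN, smul_smul, hc]) (by
      simp [NNN, smul_smul, pr_symm u' w', hc]) _ _ }
  exact ⟨f.toHomUnits, fun _ => rfl⟩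

/-- the subgroup of `SL₂` of an opposite pair -/
theorem phi' (h : fm u w = 0) (h' : fm u' w' = 0) (hc : pr u w u' w' ≠ 0) : ∃ φ : SL(2, k) →* G6 k,
    (∀ y, (φ (up y)).val = 1 + N u (y • w)) ∧ (∀ y, (φ (lo (y * pr u w u' w'))).val = 1 + N u' (y • w')) ∧
    ∀ ν hν, ν ^ 2 * pr u w u' w' = 1 → (φ (sp ν hν)).val = 1 + ν ^ 2 • (N u w * N u' w' + N u' w' * N u w) + ν • (N u w + N u' w') := by
  obtain ⟨φ, e⟩ := phi h h' hc
  refine ⟨φ, fun y => by simp [e, N_smul_r], fun y => by simp [e, N_smul_r, smul_smul, hc], fun ν hν s => ?_⟩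
  rw [e, ← eq_inv_of_mul_eq_one_left s]
  simp only [sp_v, mul_smul_comm, smul_mul_assoc, of_apply, cons_val', cons_val_zero, cons_val_one, cons_val_fin_one]
  match_scalars <;> grind

theorem odd_opp [Finite k] (h : fm u w = 0) (h' : fm u' w' = 0) (hc : pr u w u' w' ≠ 0) {a b : G6 k} (ea : a.val = 1 + N u w)
    (eb : b.val = 1 + N u' w') : Odd (orderOf (a * b)) := by
  obtain ⟨φ, e1, e2, -⟩ := phi' h h' hc
  have : a * b = φ (up 1 * lo (1 * pr u w u' w')) := by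
    rw [map_mul]; congr 1 <;> refine Units.ext ?_
    · rw [e1, one_smul, ea]
    · rw [e2, one_smul, eb]
  rw [this]
  exact (sl_odd one_ne_zero (by rwa [one_mul])).of_dvd_nat (orderOf_map_dvd _ _)

theorem N_l (h : fm u w = 0) : N u w *ᵥ u = 0 := by simp [N_mv, h]
theorem N_r (h : fm u w = 0) : N u w *ᵥ w = 0 := by simp [N_mv, h, fm_sy w u]

theorem sw [Finite k] (h : A2 P u w) (h' : A2 P u' w') (hc : pr u w u' w' ≠ 0) : ∃ n ∈ P, ∃ ν : k, ν ^ 2 * pr u w u' w' = 1 ∧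
    n.val *ᵥ u = ν • N u' w' *ᵥ u ∧ n.val *ᵥ w = ν • N u' w' *ᵥ w ∧ n.val *ᵥ u' = ν • N u w *ᵥ u' ∧
    n.val *ᵥ w' = ν • N u w *ᵥ w' ∧ ∀ v, fm v u = 0 → fm v w = 0 → fm v u' = 0 → fm v w' = 0 → n.val *ᵥ v = v := by
  obtain ⟨z, -, a, ha, ea⟩ := h
  obtain ⟨z', -, b, hb, eb⟩ := h'
  obtain ⟨φ, e1, e2, e3⟩ := phi' z z' hc
  obtain ⟨ν, hν, s, m⟩ := sl_sw (H := P.comap φ) (y := 1) (z := 1 * pr u w u' w') one_ne_zero (by rwa [one_mul])
    (by rwa [Subgroup.mem_comap, show φ _ = a from Units.ext (by rw [e1, one_smul, ea])])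
    (by rwa [Subgroup.mem_comap, show φ _ = b from Units.ext (by rw [e2, one_smul, eb])])
  rw [one_mul] at s
  refine ⟨_, m, ν, s, ?_, ?_, ?_, ?_, fun v a1 a2 a3 a4 => ?_⟩ <;>
    simp only [e3 ν hν s, add_mulVec, smul_mulVec, ← mulVec_mulVec, one_mulVec, NN_u, NN_w, N_l z, N_r z, N_l z', N_r z', mulVec_zero,
      pr_symm u' w']
  iterate 4 match_scalars <;> grind
  simp [N_mv _ _ v, a1, a2, a3, a4]

/-! ### types of pairs -/
def fB (k : Type u) [Field k] : LinearMap.BilinForm k (V6 k) :=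
  LinearMap.mk₂ k fm fm_add_l (fun c a b => fm_smul_l c a b) (fun a b c => fm_add_r b c a) fun c a b => fm_smul_r c b a
theorem rk_perp (W : Submodule k (V6 k)) : finrank k ((fB k).orthogonal W) = 6 - finrank k W := by
  rw [LinearMap.BilinForm.finrank_orthogonal ⟨fun _ h => fm_nd h, fun _ h => fm_nd' h⟩]; simp
theorem mem_perp {S : Set (V6 k)} : v ∈ (fB k).orthogonal (span k S) ↔ ∀ s ∈ S, fm s v = 0 :=
  ⟨fun h s hs => h s (subset_span hs), fun h s hs => span_induction (p := fun s _ => fm s v = 0) h (by simp)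
    (fun a b _ _ ha hb => by simp [ha, hb]) (fun c a _ ha => by simp [ha]) hs⟩
theorem iso4 (f : Fin 4 → V6 k) (h : ∀ i j, fm (f i) (f j) = 0) : ¬ LinearIndependent k f := fun li => by
  have e := finrank_span_eq_card li
  have := rk_perp (span k (Set.range f))
  have := Submodule.finrank_mono (span_le.2 fun _ ⟨j, hj⟩ => mem_perp.2 fun _ ⟨i, hi⟩ => hi ▸ hj ▸ h i j :
    span k (Set.range f) ≤ (fB k).orthogonal (span k (Set.range f)))
  simp only [Set.finrank, Fintype.card_fin] at *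
  omega

theorem ind2 (h : N u w ≠ 0) {α β : k} (e : α • u + β • w = 0) : α = 0 ∧ β = 0 := by
  obtain ⟨a, a1, a0⟩ := dual h
  obtain ⟨b, b1, b0⟩ := dual (N_comm u w ▸ h)
  exact ⟨by simpa [a1, a0] using congrArg (fm a) e, by simpa [b1, b0] using congrArg (fm b) e⟩
theorem cpl (u w : V6 k) {α β : k} (n : ¬ (α = 0 ∧ β = 0)) : ∃ γ δ : k, N u w = N (α • u + β • w) (γ • u + δ • w) := by
  by_cases h : α = 0
  · exact ⟨β⁻¹, 0, by rw [N_pair, mul_zero, zero_add, mul_inv_cancel₀ fun e => n ⟨h, e⟩, one_smul]⟩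
  · exact ⟨0, α⁻¹, by rw [N_pair, mul_zero, add_zero, mul_inv_cancel₀ h, one_smul]⟩
theorem ker2 {a b c d : k} (h : a * d + b * c = 0) : ∃ α β : k, ¬ (α = 0 ∧ β = 0) ∧ α * a + β * c = 0 ∧ α * b + β * d = 0 := by
  by_cases e : c = 0 ∧ a = 0
  · by_cases e' : d = 0 ∧ b = 0
    · exact ⟨1, 0, by simp, by simp [e], by simp [e']⟩
    · exact ⟨d, b, e', by simp [e], by grind⟩
  · exact ⟨c, a, e, by grind, by grind⟩
theorem fm_pair (h : fm u w = 0) (a b c d : k) : fm (a • u + b • w) (c • u + d • w) = 0 := by simp [h, fm_sy w u]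
theorem fm_span {a b : V6 k} (m : u ∈ span k {a, b}) (ha : fm a v = 0) (hb : fm b v = 0) : fm u v = 0 := by
  obtain ⟨_, _, rfl⟩ := mem_span_pair.1 m; simp [ha, hb]

theorem ty (h : fm u w = 0) (h' : fm u' w' = 0) (n : N u w ≠ 0) (n' : N u' w' ≠ 0) (z : pr u w u' w' = 0) : ∃ a b a' b',
    N u w = N a b ∧ N u' w' = N a' b' ∧ fm a b = 0 ∧ fm a' b' = 0 ∧ (a' = a ∨ Ty3 a b a' b') := by
  by_cases G : fm u u' = 0 ∧ fm u w' = 0 ∧ fm w u' = 0 ∧ fm w w' = 0
  · obtain ⟨g, e, i, hi⟩ := Fintype.not_linearIndependent_iff.1 (iso4 ![u, w, u', w'] fun i j => by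
      fin_cases i <;> fin_cases j <;> simp [G, h, h', fm_sy w u, fm_sy u' u, fm_sy u' w, fm_sy w' u, fm_sy w' w, fm_sy w' u'])
    simp [Fin.sum_univ_four] at e
    have e' : g 0 • u + g 1 • w = g 2 • u' + g 3 • w' := by
      linear_combination (norm := module) e - vv (k := k) (g 2 • u' + g 3 • w')
    have n0 : ¬ (g 0 = 0 ∧ g 1 = 0) := fun ⟨a, b⟩ => by
      obtain ⟨c, d⟩ := ind2 n' (e'.symm.trans (by simp [a, b]))
      fin_cases i <;> simp_all
    obtain ⟨γ, δ, e1⟩ := cpl u w n0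
    obtain ⟨γ', δ', e2⟩ := cpl u' w' (α := g 2) (β := g 3) fun ⟨a, b⟩ => n0 (ind2 n (e'.trans (by simp [a, b])))
    exact ⟨_, _, _, _, e1, e2, fm_pair h .., fm_pair h' .., .inl e'.symm⟩
  obtain ⟨α, β, n0, l1, l2⟩ := ker2 z
  obtain ⟨α', β', n0', r1, r2⟩ := ker2 (a := fm u u') (b := fm w u') (c := fm u w') (d := fm w w') (by rw [← z, pr]; ring)
  obtain ⟨γ, δ, e1⟩ := cpl u w n0
  obtain ⟨γ', δ', e2⟩ := cpl u' w' n0'
  have t1 : ∀ c d : k, fm (α • u + β • w) (c • u' + d • w') = 0 := fun c d => by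
    simp only [fm_add_l, fm_add_r, fm_smul_l, fm_smul_r]; linear_combination c * l1 + d * l2
  have t2 : ∀ c d : k, fm (c • u + d • w) (α' • u' + β' • w') = 0 := fun c d => by
    simp only [fm_add_l, fm_add_r, fm_smul_l, fm_smul_r]; linear_combination c * r1 + d * r2
  have f1 := fm_pair h α β γ δ
  have f2 := fm_pair h' α' β' γ' δ'
  have s1 := t1 α' β'
  have s2 := t1 γ' δ'
  have s3 := t2 γ δ
  generalize α • u + β • w = a at *
  generalize γ • u + δ • w = b at *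
  generalize α' • u' + β' • w' = a' at *
  generalize γ' • u' + δ' • w' = b' at *
  by_cases m : a' ∈ span k {a}
  · obtain ⟨c, rfl⟩ := mem_span_singleton.1 m
    exact ⟨a, b, a, c • b', e1, by rw [e2, N_smul_l, N_smul_r], f1, by simp [s2], .inl rfl⟩
  refine ⟨a, b, a', b', e1, e2, f1, f2, .inr ⟨s1, s2, s3, fun s4 => G ?_, m⟩⟩
  obtain ⟨m1, m2⟩ := mem_of_N n e1
  obtain ⟨m3, m4⟩ := mem_of_N n' e2
  have q : ∀ x ∈ span k {a', b'}, fm a x = 0 ∧ fm b x = 0 := fun x m => by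
    obtain ⟨_, _, rfl⟩ := mem_span_pair.1 m; simp [s1, s2, s3, s4]
  exact ⟨fm_span m1 (q _ m3).1 (q _ m3).2, fm_span m1 (q _ m4).1 (q _ m4).2, fm_span m2 (q _ m3).1 (q _ m3).2,
    fm_span m2 (q _ m4).1 (q _ m4).2⟩

theorem cm_meet {a b : G6 k} (hx : fm p x = 0) (hy : fm p y = 0) (ea : a.val = 1 + N p x) (eb : b.val = 1 + N p y) :
    a * b = b * a := Units.ext (by rw [Units.val_mul, Units.val_mul, ea, eb, r_mul hx hy, r_mul hy hx, add_comm x, fm_sy])
theorem t3_cj {b : G6 k} (t : Ty3 u w u' w') (eb : b.val = 1 + N u' w') :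
    b.val *ᵥ u = u ∧ b.val *ᵥ w = w + fm w w' • u' := by simp [eb, r_mv, t.1, t.2.1, t.2.2.1]
theorem t3_sq {a b : G6 k} (h : fm u w = 0) (h' : fm u' w' = 0) (t : Ty3 u w u' w') (ea : a.val = 1 + N u w)
    (eb : b.val = 1 + N u' w') : ((a * b) ^ 2).val = 1 + N u (fm w w' • u') := by
  have := r_cj (r_S6 h' eb) ea
  rw [(t3_cj t eb).1, (t3_cj t eb).2, inv_eq_of_mul_eq_one_right (r_inv h' eb)] at this
  rw [sq, show a * b * (a * b) = a * (b * a * b) by simp [mul_assoc], Units.val_mul, this, ea, r_mul h (by simp [h, t.1]),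
    ← add_assoc w, vv (k := k) w]
  simp [t.2.2.1]
theorem four {a b : G6 k} (h : A2 P u w) (h' : A2 P u' w') (z : pr u w u' w' = 0) (ea : a.val = 1 + N u w)
    (eb : b.val = 1 + N u' w') : (a * b) ^ 4 = 1 := by
  obtain ⟨x, y, x', y', e, e', f, f', rfl | t⟩ := ty h.1 h'.1 h.2.1 h'.2.1 z <;> rw [e] at ea <;> rw [e'] at eb
  · rw [(show Commute a b from cm_meet f f' ea eb).mul_pow, show 4 = 2 * 2 from rfl, pow_mul, pow_mul, sq a, sq b, r_inv f ea,
      r_inv f' eb]; simp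
  · rw [show 4 = 2 * 2 from rfl, pow_mul, sq, r_inv (by simp [t.1]) (t3_sq f f' t ea eb)]

theorem r_ne {a : G6 k} (n : N u w ≠ 0) (ea : a.val = 1 + N u w) : a ≠ 1 := fun e => n (by simpa [e] using ea)
theorem nab (h : Rq P π) : Subgroup.center P = ⊥ := by
  have := simple2 h
  refine (Subgroup.Normal.eq_bot_or_eq_top inferInstance).resolve_right fun e => ?_
  have := comm_top h
  rw [(commutator_eq_bot_iff_center_eq_top _).2 e] at this
  exact absurd this bot_ne_top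

theorem opp [Finite k] (hq : Rq P π) (h : A2 P u w) : ∃ u' w', A2 P u' w' ∧ pr u w u' w' ≠ 0 := by
  by_contra! H
  have := fin_P hq
  have := simple2 hq
  obtain ⟨a, ha, ea⟩ := h.2.2
  obtain ⟨b, hb, e⟩ := H13.RInv.mem_pCore_of ha (r_inv h.1 ea) fun g hg =>
    four h (h.cj hq.sp hg) (H _ _ (h.cj hq.sp hg)) ea (r_cj (hq.sp hg) ea)
  have : Nontrivial P := IsSimpleGroup.toNontrivial
  rcases (pCore_normal 2 P).eq_bot_or_eq_top with z | z
  · exact r_ne h.2.1 ea (by rw [← e, (Subgroup.eq_bot_iff_forall _).1 z b hb]; rfl)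
  · have := (H1.pCore_eq_top_iff.1 z).center_nontrivial
    rw [nab hq] at this
    exact not_subsingleton (⊥ : Subgroup P) inferInstance

/-- conjugacy -/
def Cj (P : Subgroup (G6 k)) (u w u' w' : V6 k) : Prop := ∃ g ∈ P, N (g.val *ᵥ u) (g.val *ᵥ w) = N u' w'
theorem N_act {g : G6 k} (h : g ∈ S6 k) (e : N u w = N u' w') : N (g.val *ᵥ u) (g.val *ᵥ w) = N (g.val *ᵥ u') (g.val *ᵥ w') := by
  rw [← N_cj h, ← N_cj h, e]
theorem Cj.of (e : N u w = N u' w') : Cj P u w u' w' := ⟨1, P.one_mem, by simpa using e⟩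
theorem Cj.symm (hP : P ≤ S6 k) : Cj P u w u' w' → Cj P u' w' u w
  | ⟨g, hg, e⟩ => ⟨g⁻¹, P.inv_mem hg, by rw [← N_act (hP (P.inv_mem hg)) e, inv_mv, inv_mv]⟩
theorem Cj.trans (hP : P ≤ S6 k) : Cj P u w u' w' → Cj P u' w' x y → Cj P u w x y
  | ⟨g, hg, e⟩, ⟨g', hg', e'⟩ => ⟨g' * g, P.mul_mem hg' hg, by rw [mul_mv, mul_mv, N_act (hP hg') e, e']⟩
theorem NN_pr (u w u' w' : V6 k) : N (N u' w' *ᵥ u) (N u' w' *ᵥ w) = pr u w u' w' • N u' w' := by
  rw [N_mv, N_mv, N_pair, pr]; congr 1; ring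
theorem Cj.opp [Finite k] (h : A2 P u w) (h' : A2 P u' w') (hc : pr u w u' w' ≠ 0) : Cj P u w u' w' := by
  obtain ⟨n, hn, ν, s, e1, e2, -⟩ := sw h h' hc
  exact ⟨n, hn, by rw [e1, e2, N_smul_l, N_smul_r, NN_pr, smul_smul, smul_smul, ← sq, s, one_smul]⟩
theorem pr_add (u w x u' w' : V6 k) : pr u (w + x) u' w' = pr u w u' w' + pr u x u' w' := by simp [pr]; ring
theorem pr_smul (c : k) (u w u' w' : V6 k) : pr u (c • w) u' w' = c * pr u w u' w' := by simp [pr]; ring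

/-- an element opposite to the commutator of a pair of type three is conjugate to the left factor -/
theorem t3_opp [Finite k] (hP : P ≤ S6 k) (h : A2 P u w) (h' : A2 P u' w') (t : Ty3 u w u' w') (hx : A2 P x y)
    (n : pr u (fm w w' • u') x y ≠ 0) : Cj P u w x y := by
  obtain ⟨b, hb, eb⟩ := h'.2.2
  by_cases z : pr u w x y = 0
  · have c := h.cj hP hb
    refine Cj.trans hP ⟨b, hb, rfl⟩ (Cj.opp c hx ?_)
    rwa [(t3_cj t eb).1, (t3_cj t eb).2, pr_add, z, zero_add]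
  · exact Cj.opp h hx z
theorem Ty3.symm (t : Ty3 u w u' w') (h : u ≠ 0) : Ty3 u' w' u w :=
  ⟨by rw [fm_sy, t.1], by rw [fm_sy, t.2.2.1], by rw [fm_sy, t.2.1], by rw [fm_sy]; exact t.2.2.2.1,
    (N_ne.1 (N_comm u u' ▸ N_ne.2 ⟨h, t.2.2.2.2⟩)).2⟩

theorem one [Finite k] (hq : Rq P π) (h : A2 P u w) (h' : A2 P u' w') : Cj P u w u' w' := by
  by_contra H
  have := simple2 hq
  obtain ⟨a, ha, ea⟩ := h.2.2
  obtain ⟨b, hb, eb⟩ := h'.2.2
  have cm : ∀ g ∈ P, g * a * g⁻¹ * b = b * (g * a * g⁻¹) := fun g hg => by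
    have c := h.cj hq.sp hg
    have ec := r_cj (hq.sp hg) ea
    have H' : ¬ Cj P (g.val *ᵥ u) (g.val *ᵥ w) u' w' := fun e => H (Cj.trans hq.sp ⟨g, hg, rfl⟩ e)
    obtain ⟨x, y, x', y', e, e', f, f', rfl | t⟩ := ty c.1 h'.1 c.2.1 h'.2.1 (by_contra fun n => H' (Cj.opp c h' n))
    · exact cm_meet f f' (e ▸ ec) (e' ▸ eb)
    have c1 := c.congr e f
    have c2 := h'.congr e' f'
    obtain ⟨s, s', hs, n⟩ := opp hq (c1.t3 hq.sp c2 t)
    refine (H' (Cj.trans hq.sp (Cj.trans hq.sp (Cj.of e) (t3_opp hq.sp c1 c2 t hs n)) (Cj.symm hq.sp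
      (Cj.trans hq.sp (Cj.of e') (t3_opp hq.sp c2 c1 (Ty3.symm t c1.ne_l) hs ?_))))).elim
    rwa [pr_congr (a := x) (b := fm y y' • x') (by rw [N_smul_r, N_smul_r, N_comm, fm_sy]) rfl]
  have : Subgroup.normalClosure {(⟨a, ha⟩ : P)} = ⊤ := (Subgroup.Normal.eq_bot_or_eq_top inferInstance).resolve_left fun e =>
    r_ne h.2.1 ea (congrArg Subtype.val ((Subgroup.eq_bot_iff_forall _).1 e ⟨a, ha⟩ (Subgroup.subset_normalClosure rfl)))
  have m : (⟨b, hb⟩ : P) ∈ Subgroup.center P := Subgroup.mem_center_iff.2 fun g => by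
    have : Subgroup.normalClosure {(⟨a, ha⟩ : P)} ≤ Subgroup.centralizer {⟨b, hb⟩} := (Subgroup.closure_le _).2 fun x hx => by
      obtain ⟨_, ⟨⟩, c⟩ := Group.mem_conjugatesOfSet_iff.1 hx
      obtain ⟨g, rfl⟩ := isConj_iff.1 c
      exact Subgroup.mem_centralizer_singleton_iff.2 (Subtype.ext (cm g g.2))
    exact Subgroup.mem_centralizer_singleton_iff.1 (this (by simp [*]))
  rw [nab hq] at m
  exact r_ne h'.2.1 eb (congrArg Subtype.val (Subgroup.mem_bot.1 m))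

/-- the class -/
def DD (P : Subgroup (G6 k)) : Set P := {g | ∃ u w, A2 P u w ∧ g.1.val = 1 + N u w}
theorem DD_cj (hP : P ≤ S6 k) {d : P} : d ∈ DD P → ∀ g : P, g * d * g⁻¹ ∈ DD P
  | ⟨_, _, h, e⟩, g => ⟨_, _, h.cj hP g.2, r_cj (hP g.2) e⟩
theorem DD_top (hq : Rq P π) (h : T0 P) : Subgroup.closure (DD P) = ⊤ := by
  have := simple2 hq
  obtain ⟨u, w, h⟩ := h
  obtain ⟨a, ha, ea⟩ := h.2.2
  have : (Subgroup.closure (DD P)).Normal := ⟨fun n hn g => Subgroup.closure_induction (p := fun n _ => g * n * g⁻¹ ∈ _)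
    (fun d hd => Subgroup.subset_closure (DD_cj hq.sp hd g)) (by simp)
    (fun a b _ _ ha hb => by simpa [mul_assoc] using mul_mem ha hb) (fun a _ ha => by simpa [mul_assoc] using inv_mem ha) hn⟩
  exact this.eq_bot_or_eq_top.resolve_left fun e =>
    r_ne h.2.1 ea (congrArg Subtype.val ((Subgroup.eq_bot_iff_forall _).1 e ⟨a, ha⟩ (Subgroup.subset_closure ⟨u, w, h, ea⟩)))
theorem le_cl {S : Set P} {T : Set (G6 k)} (h : Subgroup.closure S = ⊤) (i : ∀ s ∈ S, s.1 ∈ T) : P ≤ Subgroup.closure T :=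
  fun g hg => (show Subgroup.closure S ≤ (Subgroup.closure T).comap P.subtype from (Subgroup.closure_le _).2 fun s hs =>
    Subgroup.subset_closure (i s hs)) (x := ⟨g, hg⟩) (by simp [h])

theorem kt : KT.{u} := fun _ _ _ _ _ _ _ _ h =>
  ⟨fun _ _ _ _ => ty, fun _ _ _ _ => sw, fun _ _ _ _ => one h, fun _ _ => opp h, fun t => le_cl (DD_top h t) fun _ => id⟩

/-! ### the field of a root subgroup -/
theorem A2.tr (hP : P ≤ S6 k) (j : Cj P u w u' w') (h' : fm u' w' = 0) (h : A2 P u (c • w)) : A2 P u' (c • w') := by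
  obtain ⟨g, hg, e⟩ := j
  exact (h.cj hP hg).congr (by rw [mulVec_smul, N_smul_r, N_smul_r, e]) (by simp [h'])
theorem pr_scale (c : k) (u w u' w' : V6 k) : pr u w u' (c • w') = c * pr u w u' w' := by simp [pr]; ring

/-- the torus of an opposite pair -/
theorem tor [Finite k] (h : A2 P u w) (h' : A2 P u' w') (hc : pr u w u' w' ≠ 0) {l : k} (hl : A2 P u (l • w)) :
    ∃ g ∈ P, ∃ s : k, s ≠ 0 ∧ s ^ 2 = l ∧ g.val *ᵥ u = s • u ∧ g.val *ᵥ w = s • w ∧ g.val *ᵥ u' = s⁻¹ • u' ∧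
      g.val *ᵥ w' = s⁻¹ • w' ∧ ∀ v, fm v u = 0 → fm v w = 0 → fm v u' = 0 → fm v w' = 0 → g.val *ᵥ v = v := by
  have l0 : l ≠ 0 := fun e => hl.2.1 (by rw [e, zero_smul, N_zero_r])
  obtain ⟨n, hn, ν, s, e1, e2, e3, e4, e5⟩ := sw h h' hc
  obtain ⟨n', hn', ν', s', f1, f2, f3, f4, f5⟩ := sw hl h' (by rw [pr_smul]; positivity)
  rw [pr_smul] at s'
  have f2' : n'.val *ᵥ w = ν' • N u' w' *ᵥ w := smul_right_injective _ l0 (by
    simpa only [mulVec_smul, smul_comm ν' l] using f2)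
  have q1 : ∀ v, n'.val *ᵥ (N u' w' *ᵥ v) = (ν' * l) • N u w *ᵥ (N u' w' *ᵥ v) := fun v => by
    simp only [N_mv u' w', mulVec_add, mulVec_smul, f3, f4, N_smul_r, smul_mulVec]; module
  have q2 : ∀ v, n'.val *ᵥ (N u w *ᵥ v) = ν' • N u' w' *ᵥ (N u w *ᵥ v) := fun v => by
    simp only [N_mv u w, mulVec_add, mulVec_smul, f1, f2']; module
  have n0 : ν * ν' * l * pr u w u' w' ≠ 0 := by grind
  refine ⟨n' * n, P.mul_mem hn' hn, ν * ν' * l * pr u w u' w', n0, by grind, ?_, ?_, ?_, ?_, fun v a b c d => ?_⟩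
  iterate 4
    simp only [mul_mv, e1, e2, e3, e4, mulVec_smul, q1, q2, NN_u, NN_w, pr_symm u' w', smul_smul]; congr 1; grind
  rw [mul_mv, e5 v a b c d, f5 v a (by simp [b]) c d]

theorem A2.mul [Finite k] (hq : Rq P π) (h : A2 P u w) {l m : k} (hl : A2 P u (l • w)) (hm : A2 P u (m • w)) :
    A2 P u ((l * m) • w) ∧ A2 P u ((l⁻¹ * m) • w) := by
  obtain ⟨u', w', h', n⟩ := opp hq h
  obtain ⟨g, hg, s, s0, rfl, e1, e2, -⟩ := tor h h' n hl
  have i : ∀ v, g.val *ᵥ v = s • v → (g⁻¹).val *ᵥ v = s⁻¹ • v := fun v e => by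
    rw [eq_comm, inv_smul_eq_iff₀ s0, ← mulVec_smul, ← e, inv_mv]
  have a := hm.cj hq.sp hg
  have b := hm.cj hq.sp (P.inv_mem hg)
  rw [mulVec_smul, e1, e2] at a
  rw [mulVec_smul, i _ e1, i _ e2] at b
  constructor
  · convert a.move s0 using 1; module
  · convert b.move (inv_ne_zero s0) using 1; match_scalars; grind

theorem ef : EF.{u} := fun F _ _ _ _ _ P _ hp _ kt => by
  have hq := hp.toRq
  by_cases t : T0 P
  swap
  · exact ⟨⊥, fun u w h => (t ⟨u, w, h⟩).elim, fun _ u w _ _ h => (t ⟨u, w, h⟩).elim⟩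
  obtain ⟨u, w, h⟩ := t
  have ad : ∀ {a b : F}, a = 0 ∨ A2 P u (a • w) → b = 0 ∨ A2 P u (b • w) → a + b = 0 ∨ A2 P u ((a + b) • w) := by
    rintro a b (rfl | ha) (rfl | hb)
    iterate 3 simp [*]
    by_cases e : a + b = 0
    · exact .inl e
    · exact .inr (add_smul a b w ▸ ha.add hb (by simp) (by rw [← add_smul, N_smul_r]; exact smul_ne_zero e h.2.1))
  let K : Subfield F := {
    carrier := {a | a = 0 ∨ A2 P u (a • w)}
    zero_mem' := .inl rfl
    one_mem' := .inr (by simpa)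
    add_mem' := ad
    neg_mem' {a} ha := by rwa [neg_eq_of_add_eq_zero_left (aa a)]
    mul_mem' := by
      rintro a b (rfl | ha) (rfl | hb)
      iterate 3 simp
      exact .inr (A2.mul hq h ha hb).1
    inv_mem' := by
      rintro a (rfl | ha)
      · simp
      · exact .inr (by simpa using (A2.mul hq h ha (m := 1) (by simpa)).2) }
  have ek : EK P K := fun u' w' h' c => or_congr_right
    ⟨A2.tr hq.sp (one hq h h') h'.1, A2.tr hq.sp (one hq h' h) h.1⟩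
  refine ⟨K, ek, fun ⟨l, hl, l0, l1⟩ u w u' w' h h' => ?_⟩
  by_cases n : pr u w u' w' = 0
  · exact n ▸ K.zero_mem
  obtain ⟨φ, e1, e2, -⟩ := phi' h.1 h'.1 n
  have m : ∀ {y}, A2 P u (y • w) → up y ∈ P.comap φ := fun ⟨_, _, g, hg, e⟩ => by
    rwa [Subgroup.mem_comap, show φ _ = g from Units.ext (by rw [e1, e])]
  obtain ⟨b, hb, eb⟩ := h'.2.2
  have := sl_pk (c := 1 * pr u w u' w') l0 (by rwa [one_mul]) (m (by simpa)) (m (((ek u w h l).1 hl).resolve_left l0))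
    (by rwa [Subgroup.mem_comap, show φ _ = b from Units.ext (by rw [e2, one_smul, eb])])
  have l2 : 1 + l ≠ 0 := by grind
  have q : (1 + l) / (1 * pr u w u' w') ∈ K := (ek u w h _).2 (.inr ⟨by simp [h.1], by
    rw [N_smul_r]; exact smul_ne_zero (div_ne_zero l2 (by rwa [one_mul])) h.2.1, _, this, e1 _⟩)
  convert K.mul_mem (K.add_mem K.one_mem hl) (K.inv_mem q)
  grind

end H10.SP
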