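/-
S5806, characteristic two: generation by an opposite element and the partners of type one; chunk RK.
-/
import Cfsg.Agent.H10.SP.A
import Cfsg.Agent.H6.SP4
import Cfsg.Agent.S5054

set_option autoImplicit false
set_option linter.unusedSectionVars false
set_option linter.unusedSimpArgs false

namespace H10.SP
open Matrix Cfsg Cfsg.Geo H27.Asch Module Submodule H11.SP H6.SP
open scoped commutatorElement MatrixGroups

universe u
variable {k : Type u} [Field k] [CharP k 2] {G : Type*} [Group G] {P : Subgroup (G6 k)} {π : P →* G}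
  {u w u' w' p x y z t v : V6 k} {c : k}

theorem N_alt (u w v : V6 k) : fm (N u w *ᵥ v) v = 0 := by simp only [N_mv, fm_add_l, fm_smul_l, fm_sy u, fm_sy w]; grind
theorem N_adj (u w a b : V6 k) : fm (N u w *ᵥ a) b = fm a (N u w *ᵥ b) := by
  simp only [N_mv, fm_add_l, fm_smul_l, fm_add_r, fm_smul_r, fm_sy u, fm_sy w]; ring
theorem pr_self (h : fm u w = 0) : pr u w u w = 0 := by simp [pr, h]
theorem t3_D (hP : P ≤ S6 k) {a b : P} (h : A2 P u w) (h' : A2 P u' w') (t : Ty3 u w u' w') (ea : a.1.val = 1 + N u w)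
    (eb : b.1.val = 1 + N u' w') : orderOf (a * b) = 4 ∧ (a * b) ^ 2 ∈ DD P := by
  have e := t3_sq h.1 h'.1 t ea eb
  have c := h.t3 hP h' t
  refine ⟨orderOf_eq_prime_pow (p := 2) (n := 1) (fun z => r_ne c.2.1 e (congrArg Subtype.val z)) (Subtype.ext ?_), _, _, c, e⟩
  change (a.1 * b.1) ^ (2 * 2) = 1
  rw [pow_mul, sq, r_inv c.1 e]

theorem gen54 [Finite k] (hq : Rq P π) (t3 : T3 P) (h : A2 P u w) (h' : A2 P u' w') (hc : pr u w u' w' ≠ 0) :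
    P ≤ Subgroup.closure {g | g.val = 1 + N u' w' ∨
      ∃ p y, p ∈ span k {u, w} ∧ fm u y = 0 ∧ fm w y = 0 ∧ A2 P p y ∧ g.val = 1 + N p y} := by
  have := fin_P hq
  have hP := hq.sp
  have R : IsRootInvolutionSet (DD P) := ⟨fun d ⟨_, _, h, e⟩ => orderOf_eq_prime (Subtype.ext (by
      change d.1 ^ 2 = 1; rw [sq, r_inv h.1 e])) fun z => r_ne h.2.1 e (congrArg Subtype.val z), DD_top hq ⟨_, _, h⟩,
    fun _ hd => DD_cj hP hd, fun a ⟨x, y, h, ea⟩ b ⟨x', y', h', eb⟩ => by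
      by_cases z : pr x y x' y' = 0
      · obtain ⟨x, y, x', y', e, e', f, f', rfl | t⟩ := ty h.1 h'.1 h.2.1 h'.2.1 z <;> rw [e] at ea <;> rw [e'] at eb
        exacts [.inl (Subtype.ext (cm_meet f f' ea eb)), .inr (.inr (t3_D hP (h.congr e f) (h'.congr e' f') t ea eb))]
      · exact .inr (.inl (by rw [← Subgroup.orderOf_coe]; exact odd_opp h.1 h'.1 z ea eb))⟩
  obtain ⟨a, ha, ea⟩ := h.2.2
  obtain ⟨b, hb, eb⟩ := h'.2.2
  have ab : (⟨b, hb⟩ : P) ≠ ⟨a, ha⟩ := fun e => hc (by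
    have : b = a := congrArg Subtype.val e
    rw [pr_congr rfl (add_left_cancel (eb.symm.trans (this ▸ ea))), pr_self h.1])
  have od : Odd (orderOf ((⟨a, ha⟩ : P) * ⟨b, hb⟩)) := by rw [← Subgroup.orderOf_coe]; exact odd_opp h.1 h'.1 hc ea eb
  obtain ⟨x, y, x', y', hx, hx', t⟩ := t3
  obtain ⟨r, hr, er⟩ := hx.2.2
  obtain ⟨r', hr', er'⟩ := hx'.2.2
  have c := hx.t3 hP hx' t
  obtain ⟨s, hs, es⟩ := c.2.2
  refine le_cl ((Cfsg.Agent.S5054.result ⟨R, ⟨⟨r, hr⟩, ⟨_, _, hx, er⟩, ⟨s, hs⟩, ⟨_, _, c, es⟩, fun e => ?_,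
    Subtype.ext (cm_meet hx.1 c.1 er es)⟩, ⟨_, ⟨_, _, h, ea⟩, _, ⟨_, _, h', eb⟩, ab.symm, od⟩, ⟨r, hr⟩, ⟨_, _, hx, er⟩,
    ⟨r', hr'⟩, ⟨_, _, hx', er'⟩, (t3_D hP hx hx' t er er').1⟩ ⟨R, ⟨⟨a, ha⟩, _, _, h, ea⟩, fun a ⟨_, _, h, ea⟩ b ⟨_, _, h', eb⟩ => ?_⟩).1
    ⟨a, ha⟩ ⟨_, _, h, ea⟩ ⟨b, hb⟩ ⟨⟨_, _, h', eb⟩, ab, od⟩) ?_
  · have : r = s := congrArg Subtype.val e
    have := congrArg (· *ᵥ y') (add_left_cancel (er.symm.trans (this ▸ es)))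
    simp [N_mv, fm_sy y', t.2.1, hx'.1, t.2.2.2.1, hx.ne_l] at this
  · obtain ⟨g, hg, e⟩ := one hq h h'
    exact ⟨⟨g, hg⟩, Subtype.ext (Units.ext (by rw [eb, ← e]; exact (r_cj (hP hg) ea).symm))⟩
  rintro e (⟨⟨⟨x, y, hx, ee⟩, cm, -⟩, s, s', hs, es⟩ | rfl)
  swap
  · exact .inl eb
  have cm : e.1 * a = a * e.1 := congrArg Subtype.val cm
  have sq : (a * e.1) ^ 2 = 1 := by rw [(show Commute a e.1 from cm.symm).mul_pow, sq, sq, r_inv h.1 ea, r_inv hx.1 ee, mul_one]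
  obtain ⟨p, q, p', q', e1, e2, f, f', rfl | t⟩ := ty h.1 hx.1 h.2.1 hx.2.1 (pr0 (n := 1) h.1 hx.1 h.ne_l ea ee sq)
  · rw [e1] at ea; rw [e2] at ee
    have z : fm q' q = 0 := by
      obtain ⟨v, hv, -⟩ := dual (e1 ▸ h.2.1)
      have : N s s' = N p' (q' + q) + fm q' q • E p' p' := add_left_cancel (es.symm.trans (by
        change e.1.val * a.val = _; rw [ea, ee, r_mul f' f, add_assoc]))
      simpa [add_mulVec, N_alt, smul_mulVec, E_mv, hv, fm_sy p' v] using (congrArg (fun m => fm (m *ᵥ v) v) this).symm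
    obtain ⟨m1, m2⟩ := mem_of_N h.2.1 e1
    exact .inr ⟨p', q', (mem_of_N (e1 ▸ h.2.1) e1.symm).1, fm_span m1 f' (by rwa [fm_sy]), fm_span m2 f' (by rwa [fm_sy]),
      hx.congr e2 f', ee⟩
  · exact (r_ne ((h.congr e1 f).t3 hP (hx.congr e2 f') t).2.1 (t3_sq f f' t (e1 ▸ ea) (e2 ▸ ee)) sq).elim

/-- hyperbolic frames span -/
theorem sp6 {a b c d e f : V6 k} (h1 : fm a b ≠ 0) (h2 : fm c d ≠ 0) (h3 : fm e f ≠ 0)
    (z : ∀ x ∈ [a, b], ∀ y ∈ [c, d, e, f], fm x y = 0) (z' : ∀ x ∈ [c, d], ∀ y ∈ [e, f], fm x y = 0) :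
    span k {a, b, c, d, e, f} = ⊤ := by
  simp only [List.forall_mem_cons, List.not_mem_nil, false_imp_iff, implies_true, and_true] at z z'
  have li : LinearIndependent k ![a, b, c, d, e, f] := Fintype.linearIndependent_iff.2 fun g s i => by
    have e1 := congrArg (fm a) s
    have e2 := congrArg (fm b) s
    have e3 := congrArg (fm c) s
    have e4 := congrArg (fm d) s
    have e5 := congrArg (fm e) s
    have e6 := congrArg (fm f) s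
    simp [Fin.sum_univ_six, z, z', h1, h2, h3, fm_sy b a, fm_sy d c, fm_sy f e, fm_sy c a, fm_sy c b, fm_sy d a, fm_sy d b,
      fm_sy e a, fm_sy e b, fm_sy e c, fm_sy e d, fm_sy f a, fm_sy f b, fm_sy f c, fm_sy f d] at e1 e2 e3 e4 e5 e6
    fin_cases i <;> simp [*]
  rw [← li.span_eq_top_of_card_eq_finrank (by simp)]
  congr 1; ext; simp [Matrix.range_cons, or_comm, or_left_comm, eq_comm]
theorem zero_of {S : Set (V6 k)} (h : span k S = ⊤) (z : ∀ s ∈ S, fm s v = 0) : v = 0 :=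
  fm_nd' fun a => mem_perp.2 z a (h ▸ mem_top)

/-- removing the component along `d` from a partner -/
theorem part {K : Subfield k} (ek : EK P K) (pk : PK P K) (h : A2 P u w) (h' : A2 P u' w') (hc : pr u w u' w' ≠ 0)
    (m : p ∈ span k {u, w}) (h1 : fm u y = 0) (h2 : fm w y = 0) (hy : A2 P p y) : ∃ l ∈ K, ∃ t, (∃ a b : k, t = y + a • u + b • w) ∧
    fm u t = 0 ∧ fm w t = 0 ∧ fm u' t = 0 ∧ fm w' t = 0 ∧ N p y = N p t + l • N u w ∧ (t = 0 ∨ A2 P p t) := by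
  obtain ⟨α, β, rfl⟩ := mem_span_pair.1 m
  obtain ⟨a, b, e⟩ := mem_span_pair.1 (show (pr u w u' w')⁻¹ • N u w *ᵥ (N u' w' *ᵥ y) ∈ span k {u, w} from
    smul_mem _ _ (by rw [N_mv]; exact mem_span_pair.2 ⟨_, _, rfl⟩))
  have q : ∀ v, N u' w' *ᵥ (N u w *ᵥ v) = pr u w u' w' • v → fm v (y + a • u + b • w) = 0 := fun v hv => by
    rw [add_assoc, e, fm_add_r, fm_smul_r, ← N_adj, ← N_adj, hv, fm_smul_l, inv_mul_cancel_left₀ hc, aa]
  have t1 : fm u (y + a • u + b • w) = 0 := by simp [h1, h.1]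
  have t2 : fm w (y + a • u + b • w) = 0 := by simp [h2, fm_sy w u, h.1]
  have t3 := q u' (by rw [NN_u, pr_symm])
  have t4 := q w' (by rw [NN_w, pr_symm])
  have e' : N (α • u + β • w) y = N (α • u + β • w) (y + a • u + b • w) + (α * b + β * a) • N u w := by
    rw [add_assoc, N_add_r, N_pair, add_assoc, vv (k := k), add_zero]
  have e'' : y = (y + a • u + b • w) + (a • u + b • w) := by rw [add_assoc y, add_assoc y, vv (k := k), add_zero]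
  have ps : fm (α • u + β • w) (a • u + b • w) = 0 := fm_pair h.1 ..
  have st : fm (y + a • u + b • w) (a • u + b • w) = 0 := by rw [fm_sy]; simp only [fm_add_l, fm_smul_l, t1, t2]; simp
  have hl : α * b + β * a ∈ K := by
    have := K.mul_mem (pk _ _ _ _ hy h') (K.inv_mem (pk _ _ _ _ h h'))
    rwa [pr_symm, pr_N, e', add_mulVec, smul_mulVec, fm_add_l, fm_smul_l, ← pr_N, ← pr_N, pr, t3, t4, pr_symm u' w', mul_zero,
      zero_mul, zero_add, zero_add, mul_inv_cancel_right₀ hc] at this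
  refine ⟨_, hl, _, ⟨a, b, rfl⟩, t1, t2, t3, t4, e', or_iff_not_imp_left.2 fun n => ?_⟩
  have nz : N (α • u + β • w) (y + a • u + b • w) ≠ 0 := N_ne.2 ⟨hy.ne_l, fun s => n ?_⟩
  · rcases (ek _ _ h _).1 hl with z | z
    · exact hy.congr (by rw [e', z, zero_smul, add_zero]) (by simp only [fm_add_l, fm_smul_l, t1, t2]; simp)
    · rw [add_assoc] at nz ⊢
      exact hy.add (z.congr (by rw [N_pair, N_smul_r]) ps) (by rw [fm_sy]; simp [h1, h2]) nz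
  · obtain ⟨c, s⟩ := mem_span_singleton.1 s
    have : N u w *ᵥ (N u' w' *ᵥ (y + a • u + b • w)) = 0 := by
      rw [N_mv u', fm_sy _ w', fm_sy _ u', t3, t4]; simp
    rw [← s] at this ⊢
    simp only [mulVec_smul, mulVec_add, NN_u, NN_w] at this
    apply smul_right_injective _ hc
    linear_combination (norm := module) this

theorem sqrt_mem [Finite k] {K : Subfield k} {s : k} (h : s ^ 2 ∈ K) : s ∈ K := by
  obtain ⟨r, e⟩ := (Finite.injective_iff_surjective.1 (frobenius_inj K 2)) ⟨_, h⟩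
  have e : r.1 ^ 2 = s ^ 2 := congrArg Subtype.val e
  have : (r.1 + s) ^ 2 = 0 := by grind
  rw [show s = r.1 by have := pow_eq_zero_iff two_ne_zero |>.1 this; grind]; exact r.2

/-- the frame of an opposite pair and a pair of type three -/
structure Fr (u1 u2 t1 t2 g1 g2 : V6 k) (c : k) : Prop where
  c0 : c ≠ 0
  uu : fm u1 u2 = 0
  gg : fm g1 g2 = 0
  tt : fm t1 t2 = 1
  a11 : fm u1 g1 = 0
  a12 : fm u1 g2 = c
  a21 : fm u2 g1 = c
  a22 : fm u2 g2 = 0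
  b11 : fm u1 t1 = 0
  b12 : fm u1 t2 = 0
  b21 : fm u2 t1 = 0
  b22 : fm u2 t2 = 0
  c11 : fm g1 t1 = 0
  c12 : fm g1 t2 = 0
  c21 : fm g2 t1 = 0
  c22 : fm g2 t2 = 0

section
variable {u1 u2 t1 t2 g1 g2 : V6 k} (f : Fr u1 u2 t1 t2 g1 g2 c)
include f
theorem Fr.sy : fm u2 u1 = 0 ∧ fm g2 g1 = 0 ∧ fm t2 t1 = 1 ∧ fm g1 u1 = 0 ∧ fm g2 u1 = c ∧ fm g1 u2 = c ∧ fm g2 u2 = 0 ∧
    fm t1 u1 = 0 ∧ fm t2 u1 = 0 ∧ fm t1 u2 = 0 ∧ fm t2 u2 = 0 ∧ fm t1 g1 = 0 ∧ fm t2 g1 = 0 ∧ fm t1 g2 = 0 ∧ fm t2 g2 = 0 := by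
  refine ⟨?_, ?_, ?_, ?_, ?_, ?_, ?_, ?_, ?_, ?_, ?_, ?_, ?_, ?_, ?_⟩ <;> rw [fm_sy] <;> cases f <;> assumption
theorem Fr.swap : Fr u2 u1 t2 t1 g2 g1 c :=
  ⟨f.c0, f.sy.1, f.sy.2.1, f.sy.2.2.1, f.a22, f.a21, f.a12, f.a11, f.b22, f.b21, f.b12, f.b11, f.c22, f.c21, f.c12, f.c11⟩
theorem Fr.top : span k {u1, g2, u2, g1, t1, t2} = ⊤ :=
  sp6 (by simp [f.a12, f.c0]) (by simp [f.a21, f.c0]) (by simp [f.tt]) (by simp [f.uu, f.a11, f.b11, f.b12, f.c21, f.c22, f.sy])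
    (by simp [f.b21, f.b22, f.c11, f.c12])
theorem Fr.pi (h1 : fm u1 t = 0) (h2 : fm u2 t = 0) (h3 : fm g1 t = 0) (h4 : fm g2 t = 0) : ∃ γ δ : k, t = γ • t1 + δ • t2 :=
  ⟨fm t2 t, fm t1 t, (add_eq (k := k)).1 (zero_of f.top (by
    simp [h1, h2, h3, h4, f.b11, f.b12, f.b21, f.b22, f.c11, f.c12, f.c21, f.c22, f.tt, f.sy, aa]))⟩
end

/-- partners inside the frame -/
def Th (P : Subgroup (G6 k)) (u1 u2 t1 t2 : V6 k) (α β γ δ : k) : Prop := A2 P (α • u1 + β • u2) (γ • t1 + δ • t2)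

macro "frs" f:ident : tactic => `(tactic| simp only [r_mv, fm_add_l, fm_add_r, fm_smul_l, fm_smul_r, fm_self, ($f).uu, ($f).gg,
  ($f).tt, ($f).a11, ($f).a12, ($f).a21, ($f).a22, ($f).b11, ($f).b12, ($f).b21, ($f).b22, ($f).c11, ($f).c12, ($f).c21, ($f).c22,
  ($f).sy, mul_zero, zero_mul, add_zero, zero_add, mul_one, zero_smul, one_smul, smul_zero])

theorem ir (hq : Rq P π) {S : Set (G6 k)} (hg : P ≤ Subgroup.closure S) {u1 u2 t1 t2 g1 g2 : V6 k} (f : Fr u1 u2 t1 t2 g1 g2 c)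
    (H : ∀ g ∈ S, g.val = 1 + N g1 (c⁻¹ • g2) ∨ (∃ l : k, g.val = 1 + N u1 (l • u2)) ∨
      ∃ α β γ δ : k, β * γ = 0 ∧ g.val = 1 + N (α • u1 + β • u2) (γ • t1 + δ • t2)) : False := by
  have m1 : u1 ∈ span k {u1, t2, g1} := subset_span (by simp)
  have m2 : t2 ∈ span k {u1, t2, g1} := subset_span (by simp)
  have m3 : g1 ∈ span k {u1, t2, g1} := subset_span (by simp)
  have u0 : u1 ≠ 0 := fun e => f.c0 (by rw [← f.a12, e, fm_zero_l])
  refine (irr_gen hq hg (span k {u1, t2, g1}) (fun g s v hv => span_induction (p := fun v _ => g.val *ᵥ v ∈ span k {u1, t2, g1})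
    (fun v hv => ?_) (by simp) (fun a b _ _ ha hb => by rw [mulVec_add]; exact add_mem ha hb)
    (fun c a _ ha => by rw [mulVec_smul]; exact smul_mem _ _ ha) hv)).elim (fun e => u0 ((span_eq_bot.1 e) _ (by simp)))
    fun e => u0 (zero_of e (by simp [f.sy]))
  rcases H g s with e | ⟨l, e⟩ | ⟨α, β, γ, δ, z, e⟩ <;> rw [e] <;> rcases hv with rfl | rfl | rfl <;> frs f <;>
    try simp only [smul_add, smul_smul, mul_right_comm β c γ, mul_comm γ β, z, zero_mul, zero_smul, add_zero, zero_add]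
  all_goals repeat' first | exact m1 | exact m2 | exact m3 | apply add_mem | apply smul_mem

section
variable {K : Subfield k} {u1 u2 t1 t2 g1 g2 : V6 k} {α β γ δ α' β' γ' δ' : k}

theorem om (hP : P ≤ S6 k) (ek : EK P K) (f : Fr u1 u2 t1 t2 g1 g2 c) (d : A2 P u1 u2) (h : Th P u1 u2 t1 t2 α β γ δ)
    (h' : Th P u1 u2 t1 t2 α' β' γ' δ') : (γ * δ' + δ * γ') * (α * β' + β * α') ∈ K := by
  by_cases z : (γ * δ' + δ * γ') * (α * β' + β * α') = 0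
  · exact z ▸ K.zero_mem
  have e : fm (γ • t1 + δ • t2) (γ' • t1 + δ' • t2) = γ * δ' + δ * γ' := by frs f; ring
  have := A2.t3 hP h h' ⟨by frs f, by frs f, by frs f, e ▸ left_ne_zero_of_mul z, (N_ne.1 (by
    rw [N_pair]; exact smul_ne_zero (right_ne_zero_of_mul z) d.2.1)).2⟩
  exact (ek _ _ d _).2 (.inr (this.congr (by rw [e, N_smul_r, N_smul_r, N_pair, smul_smul]) (by frs f)))

def Gs (P : Subgroup (G6 k)) (K : Subfield k) (u1 u2 t1 t2 g1 g2 : V6 k) (c : k) : Set (G6 k) :=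
  {g | g.val = 1 + N g1 (c⁻¹ • g2) ∨ (∃ l ∈ K, g.val = 1 + N u1 (l • u2)) ∨
    ∃ α β γ δ, Th P u1 u2 t1 t2 α β γ δ ∧ g.val = 1 + N (α • u1 + β • u2) (γ • t1 + δ • t2)}

def Lt (K : Subfield k) (μ : k) (u1 u2 t1 t2 g1 g2 x : V6 k) : Prop :=
  μ * fm x u1 ∈ K ∧ fm x u2 ∈ K ∧ fm x t1 ∈ K ∧ μ * fm x t2 ∈ K ∧ μ * fm x g1 ∈ K ∧ fm x g2 ∈ K

theorem stp (f : Fr u1 u2 t1 t2 g1 g2 c) (hc : c ∈ K) {μ : k} (n : μ ≠ 0) (m : ∀ {α β γ δ}, Th P u1 u2 t1 t2 α β γ δ →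
    α * γ ∈ K ∧ α * δ * μ⁻¹ ∈ K ∧ β * γ * μ ∈ K ∧ β * δ ∈ K) {g : G6 k} (s : g ∈ Gs P K u1 u2 t1 t2 g1 g2 c)
    (h : Lt K μ u1 u2 t1 t2 g1 g2 x) : Lt K μ u1 u2 t1 t2 g1 g2 (g.val *ᵥ x) := by
  obtain ⟨x1, x2, x3, x4, x5, x6⟩ := h
  have := f.c0
  rcases s with e | ⟨l, hl, e⟩ | ⟨α, β, γ, δ, z, e⟩ <;> rw [e, Lt] <;> frs f
  · refine ⟨?_, ?_, x3, x4, x5, x6⟩
    · convert K.add_mem x1 x5 using 1; field_simp
    · convert K.add_mem x2 x6 using 1; field_simp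
  · refine ⟨x1, x2, x3, x4, ?_, ?_⟩
    · convert K.add_mem x5 (K.mul_mem (K.mul_mem hl hc) x1) using 1; ring
    · convert K.add_mem x6 (K.mul_mem (K.mul_mem hl hc) x2) using 1; ring
  · obtain ⟨m11, m12, m21, m22⟩ := m z
    refine ⟨x1, x2, ?_, ?_, ?_, ?_⟩
    · convert K.add_mem x3 (K.add_mem (K.mul_mem m12 x1) (K.mul_mem m22 x2)) using 1; field_simp
    · convert K.add_mem x4 (K.add_mem (K.mul_mem m11 x1) (K.mul_mem m21 x2)) using 1; ring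
    · convert K.add_mem x5 (K.mul_mem hc (K.add_mem (K.mul_mem m21 x3) (K.mul_mem m22 x4))) using 1; ring
    · convert K.add_mem x6 (K.mul_mem hc (K.add_mem (K.mul_mem m11 x3) (K.mul_mem m12 x4))) using 1; field_simp

theorem Gs.inv (f : Fr u1 u2 t1 t2 g1 g2 c) {g : G6 k} (s : g ∈ Gs P K u1 u2 t1 t2 g1 g2 c) : g⁻¹ = g := by
  refine inv_eq_of_mul_eq_one_right ?_
  rcases s with e | ⟨l, _, e⟩ | ⟨α, β, γ, δ, z, e⟩ <;> exact r_inv (by frs f) e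

theorem frm (hF : Fld P) (f : Fr u1 u2 t1 t2 g1 g2 c) (hc : c ∈ K) {μ : k} (n : μ ≠ 0) (m : ∀ {α β γ δ}, Th P u1 u2 t1 t2 α β γ δ →
    α * γ ∈ K ∧ α * δ * μ⁻¹ ∈ K ∧ β * γ * μ ∈ K ∧ β * δ ∈ K) (hg : P ≤ Subgroup.closure (Gs P K u1 u2 t1 t2 g1 g2 c)) : K = ⊤ := by
  have iv : ∀ g ∈ P, ∀ x, Lt K μ u1 u2 t1 t2 g1 g2 x → Lt K μ u1 u2 t1 t2 g1 g2 (g.val *ᵥ x) := fun g hm => by
    have := hg hm
    clear hm
    induction this using Subgroup.closure_induction'' with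
    | mem g s => exact fun x h => stp f hc n m s h
    | inv_mem g s => rw [Gs.inv f s]; exact fun x h => stp f hc n m s h
    | one => intro x h; rwa [Units.val_one, one_mulVec]
    | mul a b _ _ ha hb => intro x hx; rw [mul_mv]; exact ha _ (hb _ hx)
  have i : μ * μ⁻¹ = 1 := mul_inv_cancel₀ n
  have top : span k {u1, μ⁻¹ • g2, μ⁻¹ • u2, g1, μ⁻¹ • t1, t2} = ⊤ := sp6 (by simp [f.a12, f.c0, n]) (by simp [f.a21, f.c0, n])
    (by simp [f.tt, n]) (by simp [f.uu, f.a11, f.b11, f.b12, f.c21, f.c22, f.sy]) (by simp [f.b21, f.b22, f.c11, f.c12])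
  refine kf hF K n _ top fun g m v hv w hw => ?_
  have z := K.zero_mem
  have o := K.one_mem
  obtain ⟨x1, x2, x3, x4, x5, x6⟩ := iv g m v (by
    rcases hv with e | e | e | e | e | e <;> rw [e, Lt] <;> frs f <;>
      simp only [← mul_assoc, i, one_mul, z, o, hc, and_self])
  rcases hw with e | e | e | e | e | e <;> rw [e] <;> (try rw [fm_smul_r, ← mul_assoc, i, one_mul]) <;> assumption

theorem rk0 [Finite k] (hq : Rq P π) (hF : Fld P) (ek : EK P K) (bg : Big K)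
    (f : Fr u1 u2 t1 t2 g1 g2 c) (hc : c ∈ K) (d : A2 P u1 u2) (a : A2 P u1 t1) (b : A2 P u2 t2) {ν : k} (b' : A2 P (ν • g2) t2)
    (hg : P ≤ Subgroup.closure (Gs P K u1 u2 t1 t2 g1 g2 c)) : K = ⊤ := by
  have hP := hq.sp
  have ta : Th P u1 u2 t1 t2 1 0 1 0 := by simpa [Th]
  have tb : Th P u1 u2 t1 t2 0 1 0 1 := by simpa [Th]
  have m22 : ∀ {α β γ δ}, Th P u1 u2 t1 t2 α β γ δ → β * δ ∈ K := fun h => by simpa [mul_comm] using om hP ek f d h ta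
  have m11 : ∀ {α β γ δ}, Th P u1 u2 t1 t2 α β γ δ → α * γ ∈ K := fun h => by simpa [mul_comm] using om hP ek f d h tb
  have ν0 : ν ≠ 0 := fun e => b'.ne_l (by rw [e, zero_smul])
  have mx : ∀ {α β γ δ α' β' γ' δ'}, Th P u1 u2 t1 t2 α β γ δ → Th P u1 u2 t1 t2 α' β' γ' δ' →
      β * γ * (α' * δ') ∈ K := fun {α β γ δ α' β' γ' δ'} h h' => by
    obtain ⟨l, hl, l0, l1⟩ := bg
    obtain ⟨g, hg, s, s0, rfl, e1, e2, -, e3, e4⟩ := tor a b' (by rw [pr]; frs f; exact mul_ne_zero ν0 f.c0)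
      (((ek _ _ a _).1 hl).resolve_left l0)
    have hs := sqrt_mem hl
    have h2 : Th P u1 u2 t1 t2 (α * s) β (γ * s) (δ * s⁻¹) := by
      have := A2.cj hP h hg
      simpa only [Th, mulVec_add, mulVec_smul, e1, e2, e3, e4 u2 (by frs f) (by frs f) (by frs f) (by frs f), smul_smul] using this
    have s1 : 1 + s ≠ 0 := fun e => l1 (by rw [← (add_eq (k := k)).1 e, one_pow])
    convert K.mul_mem (K.inv_mem (K.add_mem K.one_mem hs)) (K.add_mem (K.add_mem (om hP ek f d h h') (om hP ek f d h2 h')) (K.add_mem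
      (K.mul_mem (K.add_mem K.one_mem hl) (K.mul_mem (m11 h) (m22 h'))) (K.mul_mem (K.add_mem K.one_mem (K.inv_mem hs))
        (K.mul_mem (m22 h) (m11 h'))))) using 1
    clear * - s0 s1
    grind
  obtain ⟨α, β, γ, δ, h1, n1⟩ : ∃ α β γ δ, Th P u1 u2 t1 t2 α β γ δ ∧ β * γ ≠ 0 := by
    by_contra! H
    exact ir hq hg f fun g s => s.imp_right (Or.imp (fun ⟨l, _, e⟩ => ⟨l, e⟩) fun ⟨α, β, γ, δ, h, e⟩ => ⟨α, β, γ, δ, H _ _ _ _ h, e⟩)
  obtain ⟨α', β', γ', δ', h2, n2⟩ : ∃ α β γ δ, Th P u1 u2 t1 t2 α β γ δ ∧ α * δ ≠ 0 := by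
    by_contra! H
    exact ir hq hg f.swap fun g s => s.imp (fun e => by rw [e, N_smul_r, N_smul_r, N_comm]) (Or.imp
      (fun ⟨l, _, e⟩ => ⟨l, by rw [e, N_smul_r, N_smul_r, N_comm]⟩)
      fun ⟨α, β, γ, δ, h, e⟩ => ⟨β, α, δ, γ, H _ _ _ _ h, by rw [e, add_comm (α • u1), add_comm (γ • t1)]⟩)
  refine frm hF f hc n2 (fun h => ⟨m11 h, ?_, mx h h2, m22 h⟩) hg
  convert K.mul_mem (mx h1 h) (K.inv_mem (mx h1 h2)) using 1
  have := left_ne_zero_of_mul n1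
  have := right_ne_zero_of_mul n1
  have := left_ne_zero_of_mul n2
  have := right_ne_zero_of_mul n2
  field_simp
end

theorem rk : RK.{u} := fun F _ _ _ _ _ P _ hp hF _ ⟨u, w, u', w', h, h', t⟩ K ek pk bg => by
  have hq := hp.toRq
  have d := h.t3 hq.sp h' t
  obtain ⟨m0, hm⟩ : fm w w' ≠ 0 ∧ u' ∉ span F {u} := t.2.2.2
  obtain ⟨v, v', hv, c0⟩ := opp hq d
  obtain ⟨-, -, t1, ⟨a1, b1, e1⟩, p1, p2, p3, p4, -, q1⟩ := part ek pk d hv c0 (p := u) (subset_span (by simp)) h.1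
    (by simp [fm_sy u' w, t.2.2.1]) h
  obtain ⟨-, -, t2, ⟨a2, b2, e2⟩, r1, r2, r3, r4, -, q2⟩ := part ek pk d hv c0 (p := fm w w' • u') (subset_span (by simp))
    (y := (fm w w')⁻¹ • w') (by simp [t.2.1]) (by simp [h'.1]) (h'.scale m0)
  have tt : fm t1 t2 = 1 := by
    rw [e1, fm_add_l, fm_add_l, fm_smul_l, fm_smul_l, r1, r2, e2]; simp [m0, fm_sy w u, h.1, t.2.2.1]
  have g := gen54 hq ⟨u, w, u', w', h, h', t⟩ d hv c0
  obtain ⟨n, hn, ν, -, -, n2, -, -, n3⟩ := sw d hv c0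
  generalize fm w w' • u' = u2 at *
  have s : ∀ {t}, fm v t = 0 → fm v' t = 0 → ∀ x, fm (N v v' *ᵥ x) t = 0 := fun a b x => by simp [N_mv, a, b]
  have f : Fr u u2 t1 t2 (N v v' *ᵥ u) (N v v' *ᵥ u2) (pr u u2 v v') :=
    ⟨c0, d.1, by rw [N_adj, mulVec_mulVec, N_sq hv.1]; simp, tt, by rw [fm_sy, N_alt], by rw [← N_adj, pr_N], by rw [fm_sy, pr_N],
      by rw [fm_sy, N_alt], p1, r1, p2, r2, s p3 p4 _, s r3 r4 _, s p3 p4 _, s r3 r4 _⟩
  have b := q2.resolve_left fun e => by simp [e] at tt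
  have b' := b.cj hq.sp hn
  rw [n2, n3 t2 (by rwa [fm_sy]) (by rwa [fm_sy]) (by rwa [fm_sy]) (by rwa [fm_sy])] at b'
  refine rk0 hq hF ek bg f (pk _ _ _ _ d hv) d (q1.resolve_left fun e => by simp [e] at tt) b b' (g.trans ((Subgroup.closure_le _).2 ?_))
  rintro g (e | ⟨p, y, m, y1, y2, hy, e⟩)
  · exact Subgroup.subset_closure (.inl (by rw [e, N_smul_r, NN_pr, smul_smul, inv_mul_cancel₀ c0, one_smul]))
  obtain ⟨l, hl, s', -, s1, s2, s3, s4, e', q⟩ := part ek pk d hv c0 m y1 y2 hy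
  have z : fm u (l • u2) = 0 := by simp [d.1]
  rcases q with rfl | q
  · exact Subgroup.subset_closure (.inr (.inl ⟨l, hl, by rw [e, e', N_zero_r, zero_add, N_smul_r]⟩))
  obtain ⟨α, β, rfl⟩ := mem_span_pair.1 m
  obtain ⟨γ, δ, rfl⟩ := f.pi s1 s2 (s s3 s4 _) (s s3 s4 _)
  refine (show rr _ _ q.1 * rr _ _ z = g from (gext fun x => ?_).symm) ▸ mul_mem
    (Subgroup.subset_closure (.inr (.inr ⟨α, β, γ, δ, q, rfl⟩))) (Subgroup.subset_closure (.inr (.inl ⟨l, hl, rfl⟩)))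
  rw [e, e', mul_mv]
  simp only [rr, add_mulVec, one_mulVec, smul_mulVec, N_mv]
  frs f
  module

end H10.SP
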